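import Cfsg.Agent.Lib.ToddCox.L37C5.Data
set_option autoImplicit false
set_option maxRecDepth 100000
namespace Cfsg.Agent.Lib.ToddCox.L37C5
theorem wordsGood : allBelow (wordsOK W (relR Rb inv) inv sp) nW 2 = true := by decide +kernel
theorem d0 : allBits (fun k => bif Nat.blt k 6 then chkDef Eo inv k else true) 13 0 = true := by decide +kernel
theorem s0 : chkStream Eo inv W isH 9 6 0x5000002000000c000004000001000000000001a000001000001800001400000e00000900000580000080000140000180000058000004000010000016000004800000000000c00001400000380000040000080000120000028000000000004000010000001800000400000000000f0000008000003ffffffffffff = true := by decide +kernel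
theorem c0 : Covered Eo inv W isH 6 15 := covered_of_stream 9 6 _ s0
theorem l0 : chkPoints Eo cF (2 * nEv) N ys 7 0 0x3a00000600000d80000180000160000050000048000010000032000005000005000001800001000000500000b800001000000e000003000002800000800002a00000300000300000100000080000030000098000008000006000001000000800000000002200000100000100000080000000000010000070000000000018000000 = true := by decide +kernel
theorem k0 : LinksOK Eo cF (2 * nEv) N ys 0 7 := linksOK_of_points 7 0 _ l0
end Cfsg.Agent.Lib.ToddCox.L37C5
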